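import Mathlib
import Cfsg.Agent.Lib.LieModel.Fields
import Cfsg.Agent.Lib.LieModel.L32.P.Main
import Cfsg.Agent.Lib.Classical.SLCard
import Cfsg.Agent.Lib.G23.Setup

/-! `Matrix.ProjectiveSpecialLinearGroup (Fin 3) F` as a permutation group on 7 points (generated) -/

set_option autoImplicit false
set_option maxRecDepth 100000
set_option Elab.async false

namespace CfsgLib.LieModel.L32

open CfsgLib.Comput CfsgLib.Classical CfsgLib.Recog Matrix

/-- the coding of vectors -/
abbrev C : Cd (ZMod 2) (Fin 3) := cd2 3 (finIdx 3)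

theorem good : C.Good :=
  cd2_good (show Enum 3 (finIdx 3 : ℕ → Fin 3) from ⟨by decide +kernel, by decide +kernel⟩)

/-- the table of points -/
noncomputable def T : ℕ := 0x1f58d1

theorem inj : ProjInj 7 (C.pt T) := Cd.projInj good (allLt_sound (by decide +kernel))

/-- the scalars -/
noncomputable def LS : List (List ℕ) := [[0x1000000000001, 0x1000000010000, 0x1000100000000]]

theorem scal : C.Scal LS :=
  Cd.Scal.cons (c := C.fK 1) ((Cd.codes_of_entries good (M := [0x1, 0x2, 0x4]) (by decide +kernel)).cols (by decide +kernel)) (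
  Cd.Scal.nil)

noncomputable def A0 : Matrix (Fin 3) (Fin 3) (ZMod 2) := C.mat Fin.val [0x6, 0x4, 0x5]
noncomputable def g0 : SpecialLinearGroup (Fin 3) (ZMod 2) := ⟨A0, by rw [det_fin_three]; decide +kernel⟩

theorem c0 : Compat (C.pt T) A0 (permG 7 P.W 0) :=
  Cd.compat good (OK_nth P.W_ok 0) (L := [0x2000100010000, 0x1000100000000, 0x2000100000001])
    ((Cd.codes_of_entries good (M := [0x6, 0x4, 0x5]) (by decide +kernel)).cols (by decide +kernel)) scal (allLt_sound (by decide +kernel))

noncomputable def A1 : Matrix (Fin 3) (Fin 3) (ZMod 2) := C.mat Fin.val [0x6, 0x7, 0x2]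
noncomputable def g1 : SpecialLinearGroup (Fin 3) (ZMod 2) := ⟨A1, by rw [det_fin_three]; decide +kernel⟩

theorem c1 : Compat (C.pt T) A1 (permG 7 P.W 2) :=
  Cd.compat good (OK_nth P.W_ok 2) (L := [0x2000100010000, 0x3000100010001, 0x1000000010000])
    ((Cd.codes_of_entries good (M := [0x6, 0x7, 0x2]) (by decide +kernel)).cols (by decide +kernel)) scal (allLt_sound (by decide +kernel))

/-- the generators -/
noncomputable def g (m : ℕ) : SpecialLinearGroup (Fin 3) (ZMod 2) :=
  if m = 0 then g0 else g1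

theorem hyp : ∀ m ∈ [0, 2], m < 255 ∧ Compat (C.pt T) ((SpecialLinearGroup.coeMonoidHom : SpecialLinearGroup (Fin 3) (ZMod 2) →* _) (g m)) (permG 7 P.W m) := by
  simp only [List.forall_mem_cons]
  exact ⟨⟨by norm_num, c0⟩, ⟨by norm_num, c1⟩, List.forall_mem_nil _⟩

/-- the permutation group -/
noncomputable abbrev PG : Subgroup (Equiv.Perm (Fin 7)) := cl (permG 7 P.W) P.top

theorem card_PG : Nat.card PG = 168 := P.card_perm

theorem card_G : Nat.card (Matrix.ProjectiveSpecialLinearGroup (Fin 3) (ZMod 2)) = 168 := by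
  have := CfsgLib.Classical.psl_card_mul (ι := Fin 3) (F := ZMod 2)
  rw [CfsgLib.G23.card_SL32, ZMod.card] at this
  simpa using this

theorem center_PG : Subgroup.center PG = ⊥ :=
  center_eq_bot_of_chk P.W_ok (by norm_num) (P.inA_top P.E) (hs := P.L0.hs) (a := 0) (r := 3) (by decide +kernel)

theorem exists_iso : ∃ e : (Matrix.ProjectiveSpecialLinearGroup (Fin 3) (ZMod 2)) ≃* PG, ∀ x ∈ cl (fun m => (g m, permG 7 P.W m)) P.top,
    (e (QuotientGroup.mk x.1) : Equiv.Perm (Fin 7)) = x.2 := by
  have : Finite (Matrix.ProjectiveSpecialLinearGroup (Fin 3) (ZMod 2)) := Nat.finite_of_card_ne_zero (by rw [card_G]; norm_num)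
  exact link_quot ((SpecialLinearGroup.coeMonoidHom : SpecialLinearGroup (Fin 3) (ZMod 2) →* _)) inj hyp rfl center_PG (card_G.trans card_PG.symm).le

theorem iso {F : Type*} [Field F] [Fintype F] (hF : Fintype.card F = 2) :
    Nonempty ((Matrix.ProjectiveSpecialLinearGroup (Fin 3) F) ≃* PG) := by
  obtain ⟨f, -⟩ := exists_iso
  let e : F ≃+* (ZMod 2) := FiniteField.ringEquivOfCardEq (hF.trans (ZMod.card 2).symm)
  exact ⟨(pslMapEquiv e).trans f⟩

end CfsgLib.LieModel.L32
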